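import Mathlib
import Cfsg.Agent.SL2.Elements

/-!
Commutative groups of exponent `q + 1` in dimension `d` over `F_q` have order at most `(q+1)^(d/2)`.
-/

set_option autoImplicit false
set_option linter.unusedSectionVars false

open scoped Classical

noncomputable section

namespace CfsgLib.SpMinNatDegree

open Matrix

variable {F : Type*} [Field F] [Fintype F] {A : Type*} [CommGroup A] [Finite A]

/-- Simple case: no proper invariant subspace. -/
theorem sq_card_range_le_of_simple {V : Type*} [AddCommGroup V] [Module F V] [FiniteDimensional F V]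
    [Nontrivial V] (T : A →* Module.End F V) (hA : ∀ a : A, a ^ (Fintype.card F + 1) = 1)
    (hsimple : ∀ W : Submodule F V, (∀ a, ∀ w ∈ W, T a w ∈ W) → W = ⊥ ∨ W = ⊤) :
    Nat.card (Set.range T) ^ 2 ≤ (Fintype.card F + 1) ^ Module.finrank F V := by
  set q := Fintype.card F with hq
  have hq2 : 2 ≤ q := Fintype.one_lt_card
  let K : Subalgebra F (Module.End F V) := Algebra.adjoin F (Set.range T)
  have hcomm : ∀ x ∈ K, ∀ a, x * T a = T a * x := by
    intro x hx a
    induction hx using Algebra.adjoin_induction with
    | mem y hy => obtain ⟨b, rfl⟩ := hy; rw [← map_mul, ← map_mul, mul_comm]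
    | algebraMap r => exact Algebra.commutes r _
    | add y z _ _ hy hz => rw [add_mul, mul_add, hy, hz]
    | mul y z _ _ hy hz => rw [mul_assoc, hz, ← mul_assoc, hy, mul_assoc]
  have hKcomm : ∀ x ∈ K, ∀ y ∈ K, x * y = y * x := by
    intro x hx y hy
    induction hy using Algebra.adjoin_induction with
    | mem z hz => obtain ⟨b, rfl⟩ := hz; exact hcomm x hx b
    | algebraMap r => exact (Algebra.commutes r x).symm
    | add y z _ _ hy hz => rw [add_mul, mul_add, hy, hz]
    | mul y z _ _ hy hz => rw [← mul_assoc, hy, mul_assoc, hz, ← mul_assoc]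
  have hker : ∀ x : K, (x : Module.End F V) ≠ 0 → Function.Injective (x : Module.End F V) := by
    intro x hx
    rw [← LinearMap.ker_eq_bot]
    refine (hsimple _ ?_).resolve_right (fun h => hx (LinearMap.ker_eq_top.1 h))
    intro a w hw
    rw [LinearMap.mem_ker] at hw ⊢
    have := LinearMap.congr_fun (hcomm x x.2 a) w
    rw [Module.End.mul_apply, Module.End.mul_apply, hw, map_zero] at this
    exact this
  letI : CommRing K := { (inferInstance : Ring K) with
    mul_comm := fun x y => Subtype.ext (hKcomm x x.2 y y.2) }
  haveI : IsDomain K := by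
    haveI : Nontrivial (Module.End F V) := inferInstance
    haveI : NoZeroDivisors K := ⟨fun {x y} h => by
      by_contra hne
      push Not at hne
      obtain ⟨v, hv⟩ : ∃ v, (y : Module.End F V) v ≠ 0 := by
        by_contra hc
        push Not at hc
        exact hne.2 (Subtype.ext (LinearMap.ext hc))
      apply hv
      apply hker x (fun h' => hne.1 (Subtype.ext h'))
      have h2 : ((x : Module.End F V) * (y : Module.End F V)) v = 0 := by
        have := congrArg Subtype.val h
        rw [Subalgebra.coe_mul] at this
        rw [this]; rfl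
      rw [map_zero]
      exact h2⟩
    exact NoZeroDivisors.to_isDomain K
  obtain ⟨v, hv⟩ := exists_ne (0 : V)
  let ev : K →ₗ[F] V :=
    { toFun := fun x => (x : Module.End F V) v
      map_add' := fun x y => rfl
      map_smul' := fun r x => rfl }
  have hev : Function.Injective ev := by
    rw [← LinearMap.ker_eq_bot, LinearMap.ker_eq_bot']
    intro x hx
    by_contra hne
    exact hv (hker x (fun h => hne (Subtype.ext h)) (by rw [map_zero]; exact hx))
  haveI : Module.Finite F K := Module.Finite.of_injective ev hev
  haveI : Finite K := Module.finite_of_finite F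
  haveI : Fintype K := Fintype.ofFinite _
  have hdim : Module.finrank F K ≤ Module.finrank F V := LinearMap.finrank_le_finrank_of_injective hev
  have hd1 : 1 ≤ Module.finrank F V := Module.finrank_pos
  -- the image inside the roots of unity
  have hmem : ∀ a, T a ∈ K := fun a => Algebra.subset_adjoin ⟨a, rfl⟩
  let j : Set.range T → K := fun x => ⟨x.1, Algebra.subset_adjoin x.2⟩
  have hj : Function.Injective j := fun x y h => Subtype.ext (congrArg Subtype.val h :)
  have hroot : ∀ x : Set.range T, j x ^ (q + 1) = 1 := by
    rintro ⟨_, a, rfl⟩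
    apply Subtype.ext
    rw [Subalgebra.coe_pow]
    show T a ^ (q + 1) = 1
    rw [← map_pow, hA, map_one]
  have hbound : ∀ e : ℕ, 0 < e → (∀ x : Set.range T, j x ^ e = 1) → Nat.card (Set.range T) ≤ e := by
    intro e he h
    haveI : Fintype (Set.range T) := Fintype.ofFinite _
    rw [Nat.card_eq_fintype_card, ← Finset.card_univ, ← Finset.card_image_of_injective _ hj]
    refine le_trans ?_ (Polynomial.card_nthRoots e (1 : K))
    refine le_trans (Finset.card_le_card (t := (Polynomial.nthRoots e (1 : K)).toFinset) ?_)
      (Multiset.toFinset_card_le _)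
    intro y hy
    rw [Finset.mem_image] at hy
    obtain ⟨x, -, rfl⟩ := hy
    rw [Multiset.mem_toFinset, Polynomial.mem_nthRoots he]
    exact h x
  rcases Nat.lt_or_ge (Module.finrank F V) 2 with h2 | h2
  · have he : Module.finrank F V = 1 := by omega
    rw [he, pow_one]
    have hcardK : Fintype.card K = q := by
      have hKpos : 0 < Module.finrank F K := Module.finrank_pos
      rw [Module.card_eq_pow_finrank (K := F) (V := K), show Module.finrank F K = 1 by omega, pow_one]
    letI : Field K := (Finite.isField_of_domain K).toField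
    have hsq : ∀ x : Set.range T, j x ^ 2 = 1 := by
      intro x
      have h1 := hroot x
      have h3 : j x ^ q = j x := by rw [← hcardK]; exact FiniteField.pow_card _
      rw [pow_succ, h3, ← sq] at h1
      exact h1
    have h4 := hbound 2 two_pos hsq
    rcases Nat.lt_or_ge q 3 with hq3 | hq3
    · have hsub : ∀ x : Set.range T, j x ^ 1 = 1 := by
        intro x
        have hx0 : j x ≠ 0 := fun h => by
          have := hsq x; rw [h] at this; simp at this
        have h5 : j x ^ (Fintype.card K - 1) = 1 := FiniteField.pow_card_sub_one_eq_one _ hx0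
        rwa [hcardK, show q - 1 = 1 by omega] at h5
      have h5 := hbound 1 one_pos hsub
      have : Nat.card (Set.range T) ^ 2 ≤ 1 ^ 2 := Nat.pow_le_pow_left h5 2
      omega
    · calc Nat.card (Set.range T) ^ 2 ≤ 2 ^ 2 := Nat.pow_le_pow_left h4 2
        _ ≤ q + 1 := by omega
  · have h4 := hbound (q + 1) (by omega) hroot
    calc Nat.card (Set.range T) ^ 2 ≤ (q + 1) ^ 2 := Nat.pow_le_pow_left h4 2
      _ ≤ (q + 1) ^ Module.finrank F V := Nat.pow_le_pow_right (by omega) h2

theorem sq_card_range_le (hA : ∀ a : A, a ^ (Fintype.card F + 1) = 1) :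
    ∀ {V : Type*} [AddCommGroup V] [Module F V] [FiniteDimensional F V] (T : A →* Module.End F V),
      Nat.card (Set.range T) ^ 2 ≤ (Fintype.card F + 1) ^ Module.finrank F V := by
  intro V _ _ _ T
  induction hd : Module.finrank F V using Nat.strong_induction_on generalizing V with
  | _ d ih =>
  subst hd
  rcases subsingleton_or_nontrivial V with hV | hV
  · haveI : Subsingleton (Module.End F V) := ⟨fun f g => LinearMap.ext fun x => Subsingleton.elim _ _⟩
    calc Nat.card (Set.range T) ^ 2 ≤ 1 ^ 2 :=
          Nat.pow_le_pow_left (Finite.card_le_one_iff_subsingleton.2 inferInstance) 2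
      _ ≤ _ := by rw [one_pow]; exact Nat.one_le_pow _ _ (Nat.succ_pos _)
  by_cases hs : ∀ W : Submodule F V, (∀ a, ∀ w ∈ W, T a w ∈ W) → W = ⊥ ∨ W = ⊤
  · exact sq_card_range_le_of_simple T hA hs
  push Not at hs
  obtain ⟨W, hW, hWb, hWt⟩ := hs
  let T1 : A →* Module.End F W :=
    { toFun := fun a => (T a).restrict (hW a)
      map_one' := by ext w; simp
      map_mul' := fun a b => by ext w; simp }
  let T2 : A →* Module.End F (V ⧸ W) :=
    { toFun := fun a => W.mapQ W (T a) (hW a)
      map_one' := by
        apply Submodule.linearMap_qext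
        ext v; simp
      map_mul' := fun a b => by
        apply Submodule.linearMap_qext
        ext v; simp }
  have hlt1 : Module.finrank F W < Module.finrank F V := Submodule.finrank_lt hWt
  have hsum := W.finrank_quotient_add_finrank
  have hlt2 : Module.finrank F (V ⧸ W) < Module.finrank F V := by
    have : 0 < Module.finrank F W :=
      Nat.pos_of_ne_zero fun h => hWb (Submodule.finrank_eq_zero.1 h)
    omega
  have h1 := ih _ hlt1 T1 rfl
  have h2 := ih _ hlt2 T2 rfl
  have hker : ∀ c, T1 c = 1 → T2 c = 1 → T c = 1 := by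
    intro c hc1 hc2
    refine LinearMap.ext fun v => ?_
    have hmem : T c v - v ∈ W := by
      rw [← Submodule.Quotient.eq]
      exact LinearMap.congr_fun hc2 (Submodule.Quotient.mk v)
    have hfix : ∀ w ∈ W, T c w = w := fun w hw =>
      congrArg Subtype.val (LinearMap.congr_fun hc1 ⟨w, hw⟩)
    have hpow : ∀ i : ℕ, (T c ^ i) v = v + (i : F) • (T c v - v) := by
      intro i
      induction i with
      | zero => simp
      | succ i ih =>
        rw [pow_succ', Module.End.mul_apply, ih, map_add, map_smul, hfix _ hmem, Nat.cast_succ, add_smul,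
          one_smul]
        abel
    have := hpow (Fintype.card F + 1)
    rw [← map_pow, hA, map_one, Nat.cast_succ, FiniteField.cast_card_eq_zero, zero_add, one_smul,
      add_sub_cancel] at this
    exact this.symm
  let g : Set.range T → Set.range T1 × Set.range T2 := fun x =>
    (⟨T1 x.2.choose, ⟨_, rfl⟩⟩, ⟨T2 x.2.choose, ⟨_, rfl⟩⟩)
  have hg : Function.Injective g := by
    intro x y h
    apply Subtype.ext
    rw [← x.2.choose_spec, ← y.2.choose_spec]
    have e1 := congrArg Subtype.val (congrArg Prod.fst h)
    have e2 := congrArg Subtype.val (congrArg Prod.snd h)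
    simp only [g] at e1 e2
    have h' := hker (x.2.choose * y.2.choose⁻¹)
      (by rw [map_mul, e1, ← map_mul, mul_inv_cancel, map_one])
      (by rw [map_mul, e2, ← map_mul, mul_inv_cancel, map_one])
    calc T x.2.choose = T (x.2.choose * y.2.choose⁻¹) * T y.2.choose := by
          rw [← map_mul, inv_mul_cancel_right]
      _ = T y.2.choose := by rw [h', one_mul]
  have hle := Nat.card_le_card_of_injective g hg
  rw [Nat.card_prod] at hle
  calc Nat.card (Set.range T) ^ 2 ≤ (Nat.card (Set.range T1) * Nat.card (Set.range T2)) ^ 2 :=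
        Nat.pow_le_pow_left hle 2
    _ = Nat.card (Set.range T1) ^ 2 * Nat.card (Set.range T2) ^ 2 := mul_pow _ _ _
    _ ≤ (Fintype.card F + 1) ^ Module.finrank F W * (Fintype.card F + 1) ^ Module.finrank F (V ⧸ W) :=
        Nat.mul_le_mul h1 h2
    _ = (Fintype.card F + 1) ^ Module.finrank F V := by rw [← pow_add]; congr 1; omega

/-- The block matrix of a tuple from `SL_2`. -/
def sl2Mat {n : ℕ} (g : Fin n → Matrix.SpecialLinearGroup (Fin 2) F) :
    Matrix (Fin n ⊕ Fin n) (Fin n ⊕ Fin n) F :=
  fromBlocks (diagonal fun i => g i 0 0) (diagonal fun i => g i 0 1)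
      (diagonal fun i => g i 1 0) (diagonal fun i => g i 1 1)

theorem sl2Mat_mul {n : ℕ} (g h : Fin n → Matrix.SpecialLinearGroup (Fin 2) F) :
    sl2Mat (g * h) = sl2Mat g * sl2Mat h := by
  simp only [sl2Mat, fromBlocks_multiply, diagonal_mul_diagonal, diagonal_add, Pi.mul_apply,
    Matrix.SpecialLinearGroup.coe_mul, Matrix.mul_apply, Fin.sum_univ_two]

/-- `n` copies of `SL_2` inside `Sp_2n`. -/
def sl2Pow (n : ℕ) : (Fin n → Matrix.SpecialLinearGroup (Fin 2) F) →* Matrix.symplecticGroup (Fin n) F where
  toFun g := ⟨sl2Mat g, by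
    rw [SymplecticGroup.mem_iff, sl2Mat, Matrix.J, fromBlocks_multiply, fromBlocks_transpose, fromBlocks_multiply]
    simp only [diagonal_transpose, Matrix.mul_zero, Matrix.mul_one, Matrix.mul_neg, zero_add, add_zero,
      neg_mul, diagonal_mul_diagonal]
    have hd : ∀ i, g i 0 0 * g i 1 1 - g i 0 1 * g i 1 0 = 1 := fun i => by
      have := (g i).2
      rwa [Matrix.det_fin_two] at this
    congr 1
    · ext a b
      simp only [Matrix.add_apply, Matrix.neg_apply, diagonal_apply, Matrix.zero_apply]
      split_ifs <;> ring
    · ext a b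
      simp only [Matrix.add_apply, Matrix.neg_apply, diagonal_apply, Matrix.one_apply]
      split_ifs with h
      · subst h; linear_combination -(hd a)
      · ring
    · ext a b
      simp only [Matrix.add_apply, Matrix.neg_apply, diagonal_apply, Matrix.one_apply]
      split_ifs with h
      · subst h; linear_combination (hd a)
      · ring
    · ext a b
      simp only [Matrix.add_apply, Matrix.neg_apply, diagonal_apply, Matrix.zero_apply]
      split_ifs <;> ring⟩
  map_one' := by
    apply Subtype.ext
    show sl2Mat 1 = (1 : Matrix (Fin n ⊕ Fin n) (Fin n ⊕ Fin n) F)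
    ext (a | a) (b | b) <;> simp [sl2Mat, Matrix.one_apply, diagonal_apply]
  map_mul' g h := Subtype.ext (sl2Mat_mul g h)

theorem sl2Pow_injective (n : ℕ) : Function.Injective (sl2Pow (F := F) n) := by
  intro g h e
  have e' : fromBlocks _ _ _ _ = fromBlocks _ _ _ _ := congrArg Subtype.val e
  rw [Matrix.fromBlocks_inj] at e'
  obtain ⟨h00, h01, h10, h11⟩ := e'
  funext i
  refine Subtype.ext ?_
  ext a b
  fin_cases a <;> fin_cases b
  · exact congrFun (Matrix.diagonal_injective h00) i
  · exact congrFun (Matrix.diagonal_injective h01) i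
  · exact congrFun (Matrix.diagonal_injective h10) i
  · exact congrFun (Matrix.diagonal_injective h11) i

/-- A faithful representation of `Sp_2n(q)` over `F_q` has degree at least `2n`. -/
theorem two_mul_le_of_injective (n : ℕ) {d : ℕ}
    (ρ : Matrix.symplecticGroup (Fin n) F →* GL (Fin d) F) (hρ : Function.Injective ρ) : 2 * n ≤ d := by
  obtain ⟨g, -, hcyc, hcard⟩ := CfsgLib.SL2.exists_card_centralizer_eq_add_one (F := F)
  set C := Subgroup.centralizer ({g} : Set (Matrix.SpecialLinearGroup (Fin 2) F))
  letI : CommGroup C := IsCyclic.commGroup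
  let T : (Fin n → C) →* Module.End F (Fin d → F) :=
    ((Matrix.toLinAlgEquiv' : Matrix (Fin d) (Fin d) F ≃ₐ[F] _).toMonoidHom.comp
      (Units.coeHom _)).comp (ρ.comp ((sl2Pow n).comp (C.subtype.compLeft (Fin n))))
  have hinj : Function.Injective T := by
    refine (Matrix.toLinAlgEquiv'.injective.comp Units.val_injective).comp
      (hρ.comp ((sl2Pow_injective n).comp ?_))
    intro a b h
    funext i
    exact Subtype.ext (congrFun h i)
  have hA : ∀ a : Fin n → C, a ^ (Fintype.card F + 1) = 1 := by
    intro a
    funext i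
    rw [Pi.pow_apply, ← hcard]
    exact pow_card_eq_one'
  have h := sq_card_range_le hA T
  rw [Nat.card_range_of_injective hinj, Nat.card_pi, Finset.prod_const, Finset.card_univ,
    Fintype.card_fin, hcard, ← pow_mul, Module.finrank_fin_fun] at h
  have h2 : 2 ≤ Fintype.card F + 1 := by
    have := Fintype.one_lt_card (α := F)
    omega
  have := (Nat.pow_le_pow_iff_right (by omega : 1 < Fintype.card F + 1)).1 h
  omega

end CfsgLib.SpMinNatDegree
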